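import Mathlib
import Cfsg.Agent.Lib.Helper60.U64.Defs

/-!
# U64 (S6001), package [P5], part a: the eigenspace decomposition of an element of order 5

`G ^ 5 = 1`, `τ² + τ = 1`, `5 ≠ 0`: the space is the direct sum of `ker (G - 1)`,
`ker (G + G⁴ - τ)` and `ker (G + G⁴ - τ')`, `τ' = -1 - τ`.
-/

set_option autoImplicit false

namespace Cfsg.Agent.Lib.Helper54.U64

open Matrix Polynomial Cfsg.Agent.Lib.Helper60.U64

universe u

section decomp

variable {F : Type u} [Field F]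

/-- kernel of a matrix as a submodule -/
def kerM (A : M4 F) : Submodule F (Fin 4 → F) := LinearMap.ker (Matrix.mulVecLin A)

theorem mem_kerM (A : M4 F) (v : Fin 4 → F) : v ∈ kerM A ↔ A *ᵥ v = 0 := by
  unfold kerM
  rw [LinearMap.mem_ker, Matrix.mulVecLin_apply]

theorem finrank_kerM (A : M4 F) : Module.finrank F (kerM A) + A.rank = 4 := by
  have h := LinearMap.finrank_range_add_finrank_ker (Matrix.mulVecLin A)
  rw [Module.finrank_fin_fun] at h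
  have h2 : A.rank = Module.finrank F (LinearMap.range (Matrix.mulVecLin A)) := rfl
  unfold kerM
  omega

/-- `S - τ` with `S = G + G⁴`. -/
def mAt (G : M4 F) (τ : F) : M4 F := G + G ^ 4 - τ • (1 : M4 F)

/-- `1 + G + G² + G³ + G⁴`. -/
def mNm (G : M4 F) : M4 F := 1 + G + G ^ 2 + G ^ 3 + G ^ 4

theorem aeval_mod (G : M4 F) (hG5 : G ^ 5 = 1) (P Q R : F[X]) (h : P = Q + (X ^ 5 - 1) * R) :
    aeval G P = aeval G Q := by
  rw [h, map_add, map_mul, map_sub, map_pow, aeval_X, map_one, hG5, sub_self, zero_mul, add_zero]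

theorem aeval_mAt (G : M4 F) (τ : F) : aeval G (X + X ^ 4 - C τ : F[X]) = mAt G τ := by
  unfold mAt
  rw [map_sub, map_add, map_pow, aeval_X, aeval_C, Algebra.algebraMap_eq_smul_one]

theorem aeval_mNm (G : M4 F) : aeval G (1 + X + X ^ 2 + X ^ 3 + X ^ 4 : F[X]) = mNm G := by
  unfold mNm
  simp only [map_add, map_pow, aeval_X, map_one]

theorem mAt_mul (G : M4 F) (hG5 : G ^ 5 = 1) (τ : F) (hτ : τ * τ + τ = 1) :
    mAt G τ * mAt G (-1 - τ) = mNm G := by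
  rw [← aeval_mAt, ← aeval_mAt, ← aeval_mNm, ← map_mul]
  apply aeval_mod G hG5 _ _ (X ^ 3 + 2)
  have hC : (C τ * C τ + C τ : F[X]) = 1 := by
    rw [← C_mul, ← C_add, hτ, C_1]
  rw [C_sub, C_neg, C_1]
  linear_combination (-1 : F[X]) * hC

theorem mAt_mul' (G : M4 F) (hG5 : G ^ 5 = 1) (τ : F) (hτ : τ * τ + τ = 1) :
    mAt G (-1 - τ) * mAt G τ = mNm G := by
  rw [← aeval_mAt, ← aeval_mAt, ← aeval_mNm, ← map_mul]
  apply aeval_mod G hG5 _ _ (X ^ 3 + 2)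
  have hC : (C τ * C τ + C τ : F[X]) = 1 := by
    rw [← C_mul, ← C_add, hτ, C_1]
  rw [C_sub, C_neg, C_1]
  linear_combination (-1 : F[X]) * hC

theorem sub_one_mul_mNm (G : M4 F) (hG5 : G ^ 5 = 1) : (G - 1) * mNm G = 0 := by
  have h1 : aeval G (X - 1 : F[X]) = G - 1 := by
    rw [map_sub, aeval_X, map_one]
  rw [← h1, ← aeval_mNm, ← map_mul]
  have h2 := aeval_mod G hG5 ((X - 1) * (1 + X + X ^ 2 + X ^ 3 + X ^ 4)) 0 1 (by ring)
  rw [h2, map_zero]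

theorem mNm_mul_mNm (G : M4 F) (hG5 : G ^ 5 = 1) : mNm G * mNm G = (5 : F) • mNm G := by
  have h1 : aeval G (C (5 : F) * (1 + X + X ^ 2 + X ^ 3 + X ^ 4) : F[X]) = (5 : F) • mNm G := by
    rw [map_mul, aeval_C, aeval_mNm, Algebra.algebraMap_eq_smul_one, smul_mul_assoc, one_mul]
  rw [← h1, ← aeval_mNm, ← map_mul]
  apply aeval_mod G hG5 _ _ (4 + 3 * X + 2 * X ^ 2 + X ^ 3)
  have h5 : (C (5 : F) : F[X]) = 5 := map_ofNat C 5
  rw [h5]
  ring

/-- `5 = Nm - R (G - 1)`. -/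
theorem five_eq (G : M4 F) :
    (5 : F) • (1 : M4 F) = mNm G - (G ^ 3 + 2 • G ^ 2 + 3 • G + 4 • (1 : M4 F)) * (G - 1) := by
  have h1 : aeval G (C (5 : F) : F[X]) = (5 : F) • (1 : M4 F) := by
    rw [aeval_C, Algebra.algebraMap_eq_smul_one]
  have h2 : aeval G ((1 + X + X ^ 2 + X ^ 3 + X ^ 4) - (X ^ 3 + 2 * X ^ 2 + 3 * X + 4) * (X - 1) : F[X])
      = mNm G - (G ^ 3 + 2 • G ^ 2 + 3 • G + 4 • (1 : M4 F)) * (G - 1) := by
    rw [map_sub, aeval_mNm, map_mul]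
    simp only [map_add, map_sub, map_mul, map_pow, aeval_X, map_one, map_ofNat]
    congr 2
    simp only [ofNat_smul_eq_nsmul, nsmul_eq_mul, Nat.cast_ofNat, mul_one]
  rw [← h1, ← h2]
  congr 1
  have h5 : (C (5 : F) : F[X]) = 5 := map_ofNat C 5
  rw [h5]
  ring

theorem mAt_sub (G : M4 F) (τ : F) : mAt G (-1 - τ) - mAt G τ = (1 + 2 * τ) • (1 : M4 F) := by
  unfold mAt
  rw [show (1 + 2 * τ) • (1 : M4 F) = τ • (1 : M4 F) - (-1 - τ) • (1 : M4 F) by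
    rw [← sub_smul]; congr 1; ring]
  abel

theorem one_add_two_mul_ne (τ : F) (hτ : τ * τ + τ = 1) (h5 : (5 : F) ≠ 0) : (1 + 2 * τ) ≠ 0 := by
  intro h
  apply h5
  have h2 : (5 : F) = (1 + 2 * τ) * (1 + 2 * τ) := by linear_combination (-4 : F) * hτ
  rw [h2, h, zero_mul]

theorem decomp (G : M4 F) (hG5 : G ^ 5 = 1) (τ : F) (hτ : τ * τ + τ = 1) (h5 : (5 : F) ≠ 0) :
    Module.finrank F (kerM (G - 1)) + Module.finrank F (kerM (mAt G τ)) +
      Module.finrank F (kerM (mAt G (-1 - τ))) = 4 := by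
  have hc : (1 + 2 * τ) ≠ 0 := one_add_two_mul_ne τ hτ h5
  have h12 : kerM (mAt G τ) ⊓ kerM (mAt G (-1 - τ)) = ⊥ := by
    rw [eq_bot_iff]
    intro v hv
    rw [Submodule.mem_inf, mem_kerM, mem_kerM] at hv
    have h := congrArg (fun M => M *ᵥ v) (mAt_sub G τ)
    simp only [Matrix.sub_mulVec, hv.1, hv.2, sub_zero, Matrix.smul_mulVec, Matrix.one_mulVec] at h
    rw [Submodule.mem_bot]
    exact (smul_eq_zero.1 h.symm).resolve_left hc
  have h012 : kerM (G - 1) ⊓ (kerM (mAt G τ) ⊔ kerM (mAt G (-1 - τ))) = ⊥ := by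
    rw [eq_bot_iff]
    intro v hv
    rw [Submodule.mem_inf, mem_kerM, Submodule.mem_sup] at hv
    obtain ⟨hv0, w1, hw1, w2, hw2, rfl⟩ := hv
    rw [mem_kerM] at hw1 hw2
    have hN1 : mNm G *ᵥ w1 = 0 := by
      rw [← mAt_mul' G hG5 τ hτ, ← Matrix.mulVec_mulVec, hw1, Matrix.mulVec_zero]
    have hN2 : mNm G *ᵥ w2 = 0 := by
      rw [← mAt_mul G hG5 τ hτ, ← Matrix.mulVec_mulVec, hw2, Matrix.mulVec_zero]
    have hN : mNm G *ᵥ (w1 + w2) = 0 := by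
      rw [Matrix.mulVec_add, hN1, hN2, add_zero]
    have h := congrArg (fun M => M *ᵥ (w1 + w2)) (five_eq G)
    simp only [Matrix.sub_mulVec, ← Matrix.mulVec_mulVec, hv0, hN, Matrix.mulVec_zero, sub_zero,
      Matrix.smul_mulVec, Matrix.one_mulVec] at h
    rw [Submodule.mem_bot]
    exact (smul_eq_zero.1 h).resolve_left h5
  have htop : kerM (G - 1) ⊔ (kerM (mAt G τ) ⊔ kerM (mAt G (-1 - τ))) = ⊤ := by
    rw [eq_top_iff]
    intro v _
    obtain ⟨w, hw⟩ : ∃ w : Fin 4 → F, w = (5 : F) • v - mNm G *ᵥ v := ⟨_, rfl⟩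
    have hNw : mNm G *ᵥ w = 0 := by
      rw [hw, Matrix.mulVec_sub, Matrix.mulVec_smul, Matrix.mulVec_mulVec, mNm_mul_mNm G hG5,
        Matrix.smul_mulVec, sub_self]
    have hu0 : mNm G *ᵥ v ∈ kerM (G - 1) := by
      rw [mem_kerM, Matrix.mulVec_mulVec, sub_one_mul_mNm G hG5, Matrix.zero_mulVec]
    have hu1 : mAt G (-1 - τ) *ᵥ w ∈ kerM (mAt G τ) := by
      rw [mem_kerM, Matrix.mulVec_mulVec, mAt_mul G hG5 τ hτ, hNw]
    have hu2 : mAt G τ *ᵥ w ∈ kerM (mAt G (-1 - τ)) := by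
      rw [mem_kerM, Matrix.mulVec_mulVec, mAt_mul' G hG5 τ hτ, hNw]
    have hcw : (1 + 2 * τ) • w = mAt G (-1 - τ) *ᵥ w - mAt G τ *ᵥ w := by
      rw [← Matrix.sub_mulVec, mAt_sub, Matrix.smul_mulVec, Matrix.one_mulVec]
    have hv : v = (5 : F)⁻¹ • (mNm G *ᵥ v) +
        (((5 : F)⁻¹ * (1 + 2 * τ)⁻¹) • (mAt G (-1 - τ) *ᵥ w) -
          ((5 : F)⁻¹ * (1 + 2 * τ)⁻¹) • (mAt G τ *ᵥ w)) := by
      rw [← smul_sub, ← hcw, smul_smul, mul_assoc, inv_mul_cancel₀ hc, mul_one, hw, smul_sub,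
        smul_smul, inv_mul_cancel₀ h5, one_smul]
      abel
    rw [hv]
    exact Submodule.add_mem_sup (Submodule.smul_mem _ _ hu0)
      (Submodule.sub_mem _ (Submodule.mem_sup_left (Submodule.smul_mem _ _ hu1))
        (Submodule.mem_sup_right (Submodule.smul_mem _ _ hu2)))
  have e1 := Submodule.finrank_sup_add_finrank_inf_eq (kerM (mAt G τ)) (kerM (mAt G (-1 - τ)))
  have e2 := Submodule.finrank_sup_add_finrank_inf_eq (kerM (G - 1))
    (kerM (mAt G τ) ⊔ kerM (mAt G (-1 - τ)))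
  rw [h12, finrank_bot] at e1
  rw [h012, htop, finrank_bot, finrank_top, Module.finrank_fin_fun] at e2
  omega

end decomp

end Cfsg.Agent.Lib.Helper54.U64
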