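import Mathlib
import Cfsg.Agent.Lib.Helper60.U64.Defs
import Cfsg.Agent.Lib.Helper40.UnitaryWall
import Cfsg.Agent.Lib.Helper40.GUUnip
import Cfsg.Agent.Lib.Helper54.U64.P5a

/-!
# U64 (S6001), package [P5], part b: elements of order 5 of `GU_4(p)` are fixed-point-free
when `p` has order 4 modulo 5.
-/

set_option autoImplicit false

namespace Cfsg.Agent.Lib.Helper54.U64

open Matrix Polynomial Cfsg.Agent.Lib.Helper60.U64 Cfsg.Agent.Lib.Helper40.UnitaryWall
  Cfsg.Agent.Lib.Helper45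

universe u

theorem mod_five_of_order (p : ℕ) (hord : orderOf (p : ZMod 5) = 4) : p % 5 = 2 ∨ p % 5 = 3 := by
  have h1 : ((p % 5 : ℕ) : ZMod 5) = (p : ZMod 5) := ZMod.natCast_mod p 5
  have hlt : p % 5 < 5 := Nat.mod_lt _ (by norm_num)
  rw [← h1] at hord
  generalize p % 5 = r at hord hlt
  interval_cases r
  · exfalso
    have h := pow_orderOf_eq_one (((0 : ℕ) : ZMod 5))
    rw [hord] at h
    revert h
    decide
  · exfalso
    have h := orderOf_dvd_of_pow_eq_one (show (((1 : ℕ) : ZMod 5)) ^ 1 = 1 by decide)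
    rw [hord] at h
    omega
  · exact Or.inl rfl
  · exact Or.inr rfl
  · exfalso
    have h := orderOf_dvd_of_pow_eq_one (show (((4 : ℕ) : ZMod 5)) ^ 2 = 1 by decide)
    rw [hord] at h
    omega

section charp

variable {F : Type u} [Field F] (p : ℕ) [Fact p.Prime] [CharP F p]

theorem five_ne_zero_of_mod (hp5 : p % 5 = 2 ∨ p % 5 = 3) : (5 : F) ≠ 0 := by
  intro h
  have h1 : ((5 : ℕ) : F) = 0 := by exact_mod_cast h
  have h2 := (CharP.cast_eq_zero_iff F p 5).1 h1
  have h3 := (Nat.prime_dvd_prime_iff_eq (Fact.out : p.Prime) Nat.prime_five).1 h2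
  omega

theorem S_pow_p (hp5 : p % 5 = 2 ∨ p % 5 = 3) (G : M4 F) (hG5 : G ^ 5 = 1) :
    (G + G ^ 4) ^ p = G ^ 2 + G ^ 3 := by
  have hcomm : Commute G (G ^ 4) := (Commute.refl G).pow_right 4
  rw [add_pow_char_of_commute p hcomm]
  have hpow : ∀ k : ℕ, G ^ k = G ^ (k % 5) := by
    intro k
    conv_lhs => rw [← Nat.div_add_mod k 5, pow_add, pow_mul, hG5, one_pow, one_mul]
  rw [← pow_mul, hpow p, hpow (4 * p)]
  rcases hp5 with h | h
  · have h4 : 4 * p % 5 = 3 := by omega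
    rw [h, h4]
  · have h4 : 4 * p % 5 = 2 := by omega
    rw [h, h4, add_comm]

theorem S_sq (G : M4 F) (hG5 : G ^ 5 = 1) :
    (G + G ^ 4) * (G + G ^ 4) = G ^ 2 + G ^ 3 + (2 : F) • (1 : M4 F) := by
  have h1 : aeval G ((X + X ^ 4) * (X + X ^ 4) : F[X]) = (G + G ^ 4) * (G + G ^ 4) := by
    simp only [map_add, map_mul, map_pow, aeval_X]
  have h2 : aeval G (X ^ 2 + X ^ 3 + C (2 : F) : F[X]) = G ^ 2 + G ^ 3 + (2 : F) • (1 : M4 F) := by
    rw [map_add, map_add, map_pow, map_pow, aeval_X, aeval_C, Algebra.algebraMap_eq_smul_one]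
  rw [← h1, ← h2]
  apply aeval_mod G hG5 _ _ (X ^ 3 + 2)
  have hC2 : (C (2 : F) : F[X]) = 2 := map_ofNat C 2
  rw [hC2]
  ring

theorem mulVec_pow_eigen (M : M4 F) (c : F) (v : Fin 4 → F) (h : M *ᵥ v = c • v) (k : ℕ) :
    (M ^ k) *ᵥ v = c ^ k • v := by
  induction k with
  | zero => rw [pow_zero, pow_zero, Matrix.one_mulVec, one_smul]
  | succ k ih =>
    rw [pow_succ, ← Matrix.mulVec_mulVec, h, Matrix.mulVec_smul, ih, smul_smul, pow_succ, mul_comm]

theorem S_eigen (G : M4 F) (t : F) (v : Fin 4 → F) (h : mAt G t *ᵥ v = 0) :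
    (G + G ^ 4) *ᵥ v = t • v := by
  unfold mAt at h
  rw [Matrix.sub_mulVec, Matrix.smul_mulVec, Matrix.one_mulVec, sub_eq_zero] at h
  exact h

/-- the Frobenius swaps the two roots as soon as one eigenspace is nonzero. -/
theorem tau_pow (hp5 : p % 5 = 2 ∨ p % 5 = 3) (G : M4 F) (hG5 : G ^ 5 = 1) (t : F)
    (ht : t * t + t = 1) (v : Fin 4 → F) (hv0 : v ≠ 0) (hv : mAt G t *ᵥ v = 0) :
    t ^ p = -1 - t := by
  have hS := S_eigen G t v hv
  have h1 := mulVec_pow_eigen (G + G ^ 4) t v hS p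
  have h2 := mulVec_pow_eigen (G + G ^ 4) t v hS 2
  rw [S_pow_p p hp5 G hG5] at h1
  rw [pow_two, S_sq G hG5, Matrix.add_mulVec, h1, Matrix.smul_mulVec, Matrix.one_mulVec] at h2
  have h3 : (t ^ p + 2 - t ^ 2) • v = 0 := by
    rw [sub_smul, add_smul, h2]
    abel
  have h4 := (smul_eq_zero.1 h3).resolve_right hv0
  linear_combination h4 + ht

theorem exists_tau (hp2 : p ≠ 2) [Fintype F] (hK : Fintype.card F = p ^ 2)
    (h5 : (5 : F) ≠ 0) : ∃ τ : F, τ * τ + τ = 1 := by
  have hch : ringChar F ≠ 2 := by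
    rw [ringChar.eq F p]
    exact hp2
  have h2 : (2 : F) ≠ 0 := Ring.two_ne_zero hch
  have hfrob : (5 : F) ^ p = 5 := by
    have h := map_ofNat (frobenius F p) 5
    rw [frobenius_def] at h
    exact h
  have hpos : 0 < p := (Fact.out : p.Prime).pos
  have h51 : (5 : F) ^ (p - 1) = 1 := by
    have h : (5 : F) ^ (p - 1) * 5 = 1 * 5 := by
      rw [← pow_succ, Nat.sub_add_cancel hpos, hfrob, one_mul]
    exact mul_right_cancel₀ h5 h
  have hodd : p % 2 = 1 := by
    rcases (Fact.out : p.Prime).eq_two_or_odd with h | h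
    · exact absurd h hp2
    · exact h
  have hexp : Fintype.card F / 2 = (p - 1) * ((p + 1) / 2) := by
    rw [hK]
    obtain ⟨m, hm⟩ : ∃ m, p = 2 * m + 1 := ⟨p / 2, by omega⟩
    subst hm
    have e1 : (2 * m + 1) ^ 2 = 2 * (2 * m * (m + 1)) + 1 := by ring
    have e2 : (2 * m + 1 - 1) * ((2 * m + 1 + 1) / 2) = 2 * m * (m + 1) := by
      have : (2 * m + 1 + 1) / 2 = m + 1 := by omega
      rw [this, Nat.add_sub_cancel]
    rw [e1, e2]
    omega
  have hsq : IsSquare (5 : F) := by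
    rw [FiniteField.isSquare_iff hch h5, hexp, pow_mul, h51, one_pow]
  obtain ⟨s, hs⟩ := hsq
  refine ⟨(s - 1) / 2, ?_⟩
  field_simp
  linear_combination (-1 : F) * hs

end charp

section unitary

variable {F : Type u} [Field F] [Fintype F]

theorem mAt_comm (G : M4 F) (t : F) : mAt G t * G = G * mAt G t := by
  unfold mAt
  rw [sub_mul, mul_sub, add_mul, mul_add, smul_mul_assoc, mul_smul_comm, one_mul, mul_one,
    ← pow_succ, ← pow_succ']

theorem cstar_mAt (p : ℕ) (hK : Fintype.card F = p ^ 2) (G : M4 F) (hG5 : G ^ 5 = 1)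
    (hGs : cstar (sigmaQ hK) G * G = 1) (t : F) :
    cstar (sigmaQ hK) (mAt G t) = mAt G (t ^ p) := by
  have hcs : cstar (sigmaQ hK) G = G ^ 4 := by
    calc cstar (sigmaQ hK) G = cstar (sigmaQ hK) G * (G * G ^ 4) := by
          rw [← pow_succ', hG5, mul_one]
      _ = G ^ 4 := by rw [← mul_assoc, hGs, one_mul]
  have h16 : (G ^ 4) ^ 4 = G := by
    rw [← pow_mul]
    have : G ^ (4 * 4) = (G ^ 5) ^ 3 * G := by
      rw [← pow_mul, ← pow_succ]
    rw [this, hG5, one_pow, one_mul]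
  unfold mAt
  rw [cstar_sub, cstar_add, cstar_pow, hcs, h16, cstar_smul_one, sigmaQ_apply, add_comm]

/-- [FPF] elements of order 5 of `GU_4(p)` have no nonzero fixed vector when `p` has order 4
modulo 5 (and `p` is odd). -/
theorem fpf5 (p : ℕ) (hK : Fintype.card F = p ^ 2) (hp : p.Prime) (hp2 : p ≠ 2)
    (hord : orderOf (p : ZMod 5) = 4) (g : GL (Fin 4) F) (hg : g ∈ Cfsg.GU 4 F p)
    (hg5 : g ^ 5 = 1) (hg1 : g ≠ 1) :
    ∀ v : Fin 4 → F, (g : M4 F) *ᵥ v = v → v = 0 := by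
  haveI : Fact p.Prime := ⟨hp⟩
  haveI : CharP F p := charP_of_card_eq_prime_pow hK
  have hp5 := mod_five_of_order p hord
  have h5 : (5 : F) ≠ 0 := five_ne_zero_of_mod p hp5
  obtain ⟨τ, hτ⟩ := exists_tau p hp2 hK h5
  obtain ⟨G, hG⟩ : ∃ G : M4 F, G = (g : M4 F) := ⟨_, rfl⟩
  rw [← hG]
  have hG5 : G ^ 5 = 1 := by
    have h := congrArg (fun g : GL (Fin 4) F => (g : M4 F)) hg5
    simp only [Units.val_pow_eq_pow_val, Units.val_one] at h
    rw [hG]
    exact h
  have hGs : cstar (sigmaQ hK) G * G = 1 := by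
    rw [hG]
    exact (mem_GU_iff_cstar hK g).1 hg
  have hσ2 : ∀ a : F, sigmaQ hK (sigmaQ hK a) = a := conj_conj hK
  have hdec := decomp G hG5 τ hτ h5
  have hτ' : (-1 - τ) * (-1 - τ) + (-1 - τ) = 1 := by linear_combination hτ
  -- the two eigenspaces have the same dimension
  have hdd : Module.finrank F (kerM (mAt G τ)) = Module.finrank F (kerM (mAt G (-1 - τ))) := by
    by_cases hb : kerM (mAt G τ) = ⊥ ∧ kerM (mAt G (-1 - τ)) = ⊥
    · rw [hb.1, hb.2]
    · have hστ : τ ^ p = -1 - τ := by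
        by_cases h1 : kerM (mAt G τ) = ⊥
        · have h2 : kerM (mAt G (-1 - τ)) ≠ ⊥ := fun h => hb ⟨h1, h⟩
          obtain ⟨v, hv, hv0⟩ := (Submodule.ne_bot_iff _).1 h2
          rw [mem_kerM] at hv
          have h3 := tau_pow p hp5 G hG5 (-1 - τ) hτ' v hv0 hv
          have h4 : (-1 - τ) ^ p = τ := by
            rw [h3]
            ring
          have h6 := hσ2 (-1 - τ)
          rw [sigmaQ_apply, sigmaQ_apply, h4] at h6
          exact h6
        · obtain ⟨v, hv, hv0⟩ := (Submodule.ne_bot_iff _).1 h1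
          rw [mem_kerM] at hv
          exact tau_pow p hp5 G hG5 τ hτ v hv0 hv
      have hr : (mAt G (-1 - τ)).rank = (mAt G τ).rank := by
        rw [← hστ, ← cstar_mAt p hK G hG5 hGs τ, rank_cstar (sigmaQ hK) hσ2]
      have e1 := finrank_kerM (mAt G τ)
      have e2 := finrank_kerM (mAt G (-1 - τ))
      omega
  -- the fixed space is not everything
  have ha4 : Module.finrank F (kerM (G - 1)) ≠ 4 := by
    intro h
    have htop : kerM (G - 1) = ⊤ := by
      apply Submodule.eq_top_of_finrank_eq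
      rw [h, Module.finrank_fin_fun]
    have hG1 : G - 1 = 0 := by
      apply Matrix.mulVec_injective
      funext v
      have hv : v ∈ kerM (G - 1) := by
        rw [htop]
        exact Submodule.mem_top
      rw [mem_kerM] at hv
      rw [hv, Matrix.zero_mulVec]
    apply hg1
    apply Units.ext
    rw [Units.val_one, ← hG]
    exact sub_eq_zero.1 hG1
  -- no eigenvector in the `τ`-eigenspace
  have hd1 : Module.finrank F (kerM (mAt G τ)) ≠ 1 := by
    intro h
    obtain ⟨v, hv0, hall⟩ := finrank_eq_one_iff'.1 h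
    have hvk : mAt G τ *ᵥ (v : Fin 4 → F) = 0 := (mem_kerM _ _).1 v.2
    have hv0' : (v : Fin 4 → F) ≠ 0 := fun h => hv0 (Subtype.ext h)
    have hGv : G *ᵥ (v : Fin 4 → F) ∈ kerM (mAt G τ) := by
      rw [mem_kerM, Matrix.mulVec_mulVec, mAt_comm, ← Matrix.mulVec_mulVec, hvk,
        Matrix.mulVec_zero]
    obtain ⟨c, hc⟩ := hall ⟨_, hGv⟩
    have hc' : G *ᵥ (v : Fin 4 → F) = c • (v : Fin 4 → F) := by
      have h := congrArg (fun w : kerM (mAt G τ) => (w : Fin 4 → F)) hc
      exact h.symm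
    have hc5 : c ^ 5 = 1 := by
      have h := mulVec_pow_eigen G c v hc' 5
      rw [hG5, Matrix.one_mulVec] at h
      have h2 : (c ^ 5 - 1) • (v : Fin 4 → F) = 0 := by
        rw [sub_smul, one_smul, ← h, sub_self]
      exact sub_eq_zero.1 ((smul_eq_zero.1 h2).resolve_right hv0')
    have hc0 : c ≠ 0 := by
      intro h
      rw [h] at hc5
      norm_num at hc5
    have hcq : c ^ (p ^ 2 - 1) = 1 := by
      rw [← hK]
      exact FiniteField.pow_card_sub_one_eq_one c hc0
    have hmod : (p ^ 2 - 1) % 5 = 3 := by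
      have hpp : p ^ 2 % 5 = 4 := by
        rw [Nat.pow_mod]
        rcases hp5 with h | h <;> rw [h]
      have hpos : 0 < p ^ 2 := pow_pos hp.pos 2
      omega
    have hc1 : c = 1 := by
      have h1 : orderOf c ∣ 5 := orderOf_dvd_of_pow_eq_one hc5
      have h2 : orderOf c ∣ p ^ 2 - 1 := orderOf_dvd_of_pow_eq_one hcq
      rcases (Nat.dvd_prime Nat.prime_five).1 h1 with h | h
      · exact orderOf_eq_one_iff.1 h
      · exfalso
        rw [h] at h2
        omega
    have hS := S_eigen G τ v hvk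
    have h4 := mulVec_pow_eigen G c v hc' 4
    rw [Matrix.add_mulVec, hc', h4, hc1, one_pow, one_smul] at hS
    have h2 : ((2 : F) - τ) • (v : Fin 4 → F) = 0 := by
      rw [sub_smul, ← hS, two_smul, sub_self]
    have h3 := (smul_eq_zero.1 h2).resolve_right hv0'
    apply h5
    linear_combination hτ + (3 + τ) * h3
  have ha : Module.finrank F (kerM (G - 1)) = 0 := by
    omega
  intro v hv
  have hmem : v ∈ kerM (G - 1) := by
    rw [mem_kerM, Matrix.sub_mulVec, hv, Matrix.one_mulVec, sub_self]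
  rw [Submodule.finrank_eq_zero.1 ha, Submodule.mem_bot] at hmem
  exact hmem

end unitary

end Cfsg.Agent.Lib.Helper54.U64
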