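import Mathlib
import Cfsg.Agent.Lib.Helper60.U64.Defs
import Cfsg.Agent.Lib.Helper40.UnitaryWall
import Cfsg.Agent.Lib.Helper45.X32.Syl5
import Cfsg.Agent.Lib.Helper54.U64.P5b

/-!
# U64 (S6001), package [P5]

Elements `x` of `SU_4(p)` with `x ^ 5` scalar are `SU_4(p)`-conjugate into every subgroup
containing the scalars and one element of order 5 of `SU_4(p)`, when `p` has order 4 mod 5.
-/

set_option autoImplicit false

namespace Cfsg.Agent.Lib.Helper54.U64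

open Matrix Cfsg.Agent.Lib.Helper60.U64 Cfsg.Agent.Lib.Helper40.UnitaryWall
  Cfsg.Agent.Lib.Helper45

universe u

section comm

variable {F : Type u} [Field F]

/-- `1 + g + g² + g³ + g⁴ = 0` for a fixed-point-free element of order 5. -/
theorem norm_zero_of_fpf (S : Subgroup (GL (Fin 4) F))
    (hfpf : ∀ c ∈ S, c ^ 5 = 1 → c ≠ 1 → ∀ v : Fin 4 → F, (c : M4 F) *ᵥ v = v → v = 0)
    (g : GL (Fin 4) F) (hgS : g ∈ S) (hg5 : g ^ 5 = 1) (hg1 : g ≠ 1) :
    ∑ k ∈ Finset.range 5, (g : M4 F) ^ k = 0 := by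
  have hG5 : (g : M4 F) ^ 5 = 1 := by
    have h := congrArg (fun g : GL (Fin 4) F => (g : M4 F)) hg5
    simpa using h
  have hGS : (g : M4 F) * ∑ k ∈ Finset.range 5, (g : M4 F) ^ k =
      ∑ k ∈ Finset.range 5, (g : M4 F) ^ k := by
    have e : ∑ k ∈ Finset.range 5, (g : M4 F) ^ k =
        1 + (g : M4 F) + (g : M4 F) ^ 2 + (g : M4 F) ^ 3 + (g : M4 F) ^ 4 := by
      simp [Finset.sum_range_succ]
    rw [e]
    have e2 : (g : M4 F) * (1 + (g : M4 F) + (g : M4 F) ^ 2 + (g : M4 F) ^ 3 + (g : M4 F) ^ 4) =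
        (g : M4 F) + (g : M4 F) ^ 2 + (g : M4 F) ^ 3 + (g : M4 F) ^ 4 + (g : M4 F) ^ 5 := by
      noncomm_ring
    rw [e2, hG5]
    abel
  apply Matrix.mulVec_injective
  funext v
  rw [Matrix.zero_mulVec]
  apply hfpf g hgS hg5 hg1
  rw [Matrix.mulVec_mulVec, hGS]

/-- commuting elements of order 5 of a subgroup all of whose elements of order 5 are
fixed-point-free generate the same subgroup. -/
theorem comm5_of_fpf (h5 : (5 : F) ≠ 0) (S : Subgroup (GL (Fin 4) F))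
    (hfpf : ∀ c ∈ S, c ^ 5 = 1 → c ≠ 1 → ∀ v : Fin 4 → F, (c : M4 F) *ᵥ v = v → v = 0)
    (c c' : GL (Fin 4) F) (hcS : c ∈ S) (hc'S : c' ∈ S) (hc5 : c ^ 5 = 1) (hc1 : c ≠ 1)
    (hc'5 : c' ^ 5 = 1) (hcomm : c * c' = c' * c) : c' ∈ Subgroup.zpowers c := by
  by_contra hnot
  have hc'1 : c' ≠ 1 := by
    intro h
    apply hnot
    rw [h]
    exact Subgroup.one_mem _
  have hC : Commute c c' := hcomm
  have hpow1 : ∀ k : ℕ, 0 < k → k < 5 → c' ^ k ≠ 1 := by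
    intro k hk0 hk5 h
    have h1 : orderOf c' ∣ Nat.gcd k 5 :=
      Nat.dvd_gcd (orderOf_dvd_of_pow_eq_one h) (orderOf_dvd_of_pow_eq_one hc'5)
    have h2 : Nat.gcd k 5 = 1 := by
      interval_cases k <;> rfl
    rw [h2, Nat.dvd_one, orderOf_eq_one_iff] at h1
    exact hc'1 h1
  have hkey : ∀ j m : ℕ, j * m % 5 = 1 → c * c' ^ j = 1 → False := by
    intro j m hjm h
    apply hnot
    have h1 : c' ^ j = c⁻¹ := eq_inv_of_mul_eq_one_right h
    have h2 : c' = (c' ^ j) ^ m := by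
      rw [← pow_mul, ← Nat.mod_add_div (j * m) 5, hjm, pow_add, pow_mul, hc'5, one_pow, mul_one,
        pow_one]
    rw [h2, h1]
    exact Subgroup.pow_mem _ (Subgroup.inv_mem _ (Subgroup.mem_zpowers c)) m
  have hmix1 : ∀ j : ℕ, j < 5 → c * c' ^ j ≠ 1 := by
    intro j hj h
    interval_cases j
    · rw [pow_zero, mul_one] at h
      exact hc1 h
    · exact hkey 1 1 rfl h
    · exact hkey 2 3 rfl h
    · exact hkey 3 2 rfl h
    · exact hkey 4 4 rfl h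
  have hmix5 : ∀ j : ℕ, (c * c' ^ j) ^ 5 = 1 := by
    intro j
    rw [(hC.pow_right j).mul_pow, hc5, one_mul, ← pow_mul, mul_comm, pow_mul, hc'5, one_pow]
  have hpow5 : ∀ k : ℕ, (c' ^ k) ^ 5 = 1 := by
    intro k
    rw [← pow_mul, mul_comm, pow_mul, hc'5, one_pow]
  obtain ⟨A, hA⟩ : ∃ A : M4 F, A = (c : M4 F) := ⟨_, rfl⟩
  obtain ⟨B, hB⟩ : ∃ B : M4 F, B = (c' : M4 F) := ⟨_, rfl⟩
  have hAB : Commute A B := by
    have h := congrArg (fun g : GL (Fin 4) F => (g : M4 F)) hcomm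
    simp only [Units.val_mul] at h
    rw [hA, hB]
    exact h
  have hL : ∑ j ∈ Finset.range 5, ∑ k ∈ Finset.range 5, (A * B ^ j) ^ k = 0 := by
    apply Finset.sum_eq_zero
    intro j hj
    have h := norm_zero_of_fpf S hfpf (c * c' ^ j) (S.mul_mem hcS (S.pow_mem hc'S j)) (hmix5 j)
      (hmix1 j (Finset.mem_range.1 hj))
    rw [Units.val_mul, Units.val_pow_eq_pow_val, ← hA, ← hB] at h
    exact h
  have hswap : ∑ j ∈ Finset.range 5, ∑ k ∈ Finset.range 5, (A * B ^ j) ^ k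
      = ∑ k ∈ Finset.range 5, A ^ k * ∑ j ∈ Finset.range 5, (B ^ k) ^ j := by
    rw [Finset.sum_comm]
    apply Finset.sum_congr rfl
    intro k _
    rw [Finset.mul_sum]
    apply Finset.sum_congr rfl
    intro j _
    rw [(hAB.pow_right j).mul_pow, ← pow_mul, ← pow_mul, mul_comm j k]
  have hR : ∑ k ∈ Finset.range 5, A ^ k * ∑ j ∈ Finset.range 5, (B ^ k) ^ j
      = 5 • (1 : M4 F) := by
    rw [Finset.sum_eq_single 0]
    · simp
    · intro k hk hk0
      have h := norm_zero_of_fpf S hfpf (c' ^ k) (S.pow_mem hc'S k) (hpow5 k)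
        (hpow1 k (Nat.pos_of_ne_zero hk0) (Finset.mem_range.1 hk))
      rw [Units.val_pow_eq_pow_val, ← hB] at h
      rw [h, mul_zero]
    · intro h
      exact absurd (Finset.mem_range.2 (by norm_num)) h
  rw [hswap, hR] at hL
  have h00 := congrFun (congrFun hL 0) 0
  simp at h00
  exact h5 h00

end comm

section scal

variable {F : Type u} [Field F]

/-- the scalar matrix `c • 1` as an element of `GL_4`. -/
def scalGL (c : F) (hc : c ≠ 0) : GL (Fin 4) F :=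
  ⟨c • (1 : M4 F), c⁻¹ • (1 : M4 F),
    by rw [smul_mul_smul_comm, mul_inv_cancel₀ hc, one_smul, mul_one],
    by rw [smul_mul_smul_comm, inv_mul_cancel₀ hc, one_smul, mul_one]⟩

theorem scalGL_val (c : F) (hc : c ≠ 0) : ((scalGL c hc : GL (Fin 4) F) : M4 F) = c • 1 := rfl

theorem scalGL_inv_val (c : F) (hc : c ≠ 0) :
    (((scalGL c hc)⁻¹ : GL (Fin 4) F) : M4 F) = c⁻¹ • 1 := rfl

theorem scalGL_comm (c : F) (hc : c ≠ 0) (w : GL (Fin 4) F) :
    scalGL c hc * w = w * scalGL c hc := by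
  apply Units.ext
  rw [Units.val_mul, Units.val_mul, scalGL_val, smul_mul_assoc, mul_smul_comm, one_mul, mul_one]

theorem scalGL_det (c : F) (hc : c ≠ 0) : ((scalGL c hc : GL (Fin 4) F) : M4 F).det = c ^ 4 := by
  rw [scalGL_val, Matrix.det_smul, Matrix.det_one, mul_one, Fintype.card_fin]

theorem scalGL_mem_GU [Fintype F] (p : ℕ) (hK : Fintype.card F = p ^ 2) (c : F) (hc : c ≠ 0)
    (hcp : c ^ (p + 1) = 1) : scalGL c hc ∈ Cfsg.GU 4 F p := by
  rw [mem_GU_iff_cstar hK, scalGL_val, cstar_smul_one, sigmaQ_apply, smul_mul_smul_comm, mul_one,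
    ← pow_succ, hcp, one_smul]

end scal

theorem pkgP5 : PkgP5.{u} := by
  intro F _ _ p hK hp hp4 hord N Y hN hY hYN hY5 hY1 x hx hx5 hxns
  classical
  haveI : Fact p.Prime := ⟨hp⟩
  haveI : CharP F p := charP_of_card_eq_prime_pow hK
  have hp2 : p ≠ 2 := by omega
  have hp5 := mod_five_of_order p hord
  have h5 : (5 : F) ≠ 0 := five_ne_zero_of_mod p hp5
  obtain ⟨z, hz⟩ := hx5
  have hxdet : (x : M4 F).det = 1 := by
    have h2 : Matrix.GeneralLinearGroup.det x = 1 := MonoidHom.mem_ker.1 hx.2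
    have h3 := congrArg (fun u : Fˣ => (u : F)) h2
    simpa using h3
  have hz4 : z ^ 4 = 1 := by
    have h := congrArg Matrix.det hz
    rw [Units.val_pow_eq_pow_val, Matrix.det_pow, hxdet, one_pow, Matrix.det_smul, Matrix.det_one,
      mul_one, Fintype.card_fin] at h
    exact h.symm
  have hz0 : z ≠ 0 := by
    intro h
    rw [h] at hz4
    norm_num at hz4
  have hzp : z ^ (p + 1) = 1 := by
    obtain ⟨m, hm⟩ : ∃ m, p + 1 = 4 * m := ⟨(p + 1) / 4, by omega⟩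
    rw [hm, pow_mul, hz4, one_pow]
  obtain ⟨zi, hzi⟩ : ∃ zi : GL (Fin 4) F, zi = scalGL z⁻¹ (inv_ne_zero hz0) := ⟨_, rfl⟩
  obtain ⟨t, ht⟩ : ∃ t : GL (Fin 4) F, t = zi * x := ⟨_, rfl⟩
  have hziGU : zi ∈ Cfsg.GU 4 F p := by
    rw [hzi]
    exact scalGL_mem_GU p hK _ _ (by rw [inv_pow, hzp, inv_one])
  have htGU : t ∈ Cfsg.GU 4 F p := by
    rw [ht]
    exact Subgroup.mul_mem _ hziGU hx.1
  have htSL : t ∈ Cfsg.Geo.specialLinear (Fin 4) F := by
    show t ∈ (Matrix.GeneralLinearGroup.det : GL (Fin 4) F →* Fˣ).ker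
    rw [MonoidHom.mem_ker]
    apply Units.ext
    rw [Matrix.GeneralLinearGroup.val_det_apply, Units.val_one, ht, Units.val_mul, Matrix.det_mul,
      hzi, scalGL_det, hxdet, mul_one, inv_pow, hz4, inv_one]
  have ht5 : t ^ 5 = 1 := by
    apply Units.ext
    rw [Units.val_pow_eq_pow_val, Units.val_one, ht, Units.val_mul, hzi, scalGL_val, smul_mul_assoc,
      one_mul, smul_pow, ← Units.val_pow_eq_pow_val, hz, smul_smul]
    have h : z⁻¹ ^ 5 * z = 1 := by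
      rw [inv_pow, pow_succ, hz4, one_mul, inv_mul_cancel₀ hz0]
    rw [h, one_smul]
  have ht1 : t ≠ 1 := by
    intro h
    apply hxns z
    have h2 := congrArg (fun g : GL (Fin 4) F => (g : M4 F)) h
    simp only [Units.val_one] at h2
    rw [ht, Units.val_mul, hzi, scalGL_val, smul_mul_assoc, one_mul] at h2
    rw [← h2, smul_smul, mul_inv_cancel₀ hz0, one_smul]
  have hc : ∀ c c' : ↥(Cfsg.GU 4 F p), c ^ 5 = 1 → c ≠ 1 → c' ^ 5 = 1 → c * c' = c' * c →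
      c' ∈ Subgroup.zpowers c := by
    intro c c' hc5 hc1 hc'5 hcomm
    have h := comm5_of_fpf h5 (Cfsg.GU 4 F p)
      (fun g hg hg5 hg1 => fpf5 p hK hp hp2 hord g hg hg5 hg1) c.1 c'.1 c.2 c'.2
      (congrArg Subtype.val hc5) (fun h => hc1 (Subtype.ext h)) (congrArg Subtype.val hc'5)
      (congrArg Subtype.val hcomm)
    obtain ⟨n, hn⟩ := Subgroup.mem_zpowers_iff.1 h
    exact Subgroup.mem_zpowers_iff.2 ⟨n, Subtype.ext hn⟩
  have hsyl := Cfsg.Agent.Lib.Helper45.X32.pkgSyl5.{u}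
    ((Cfsg.Geo.specialLinear (Fin 4) F).subgroupOf (Cfsg.GU 4 F p)) hc
    ⟨t, htGU⟩ (Subgroup.mem_subgroupOf.2 htSL) ⟨Y, hY.1⟩ (Subgroup.mem_subgroupOf.2 hY.2)
    (Subtype.ext ht5) (fun h => ht1 (congrArg Subtype.val h)) (Subtype.ext hY5)
    (fun h => hY1 (congrArg Subtype.val h))
  obtain ⟨g, hgH, k, hgk⟩ := hsyl
  refine ⟨(g : GL (Fin 4) F), ⟨g.2, Subgroup.mem_subgroupOf.1 hgH⟩, ?_⟩
  have h1 : (g : GL (Fin 4) F)⁻¹ * t * (g : GL (Fin 4) F) = Y ^ k := by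
    have h := congrArg Subtype.val hgk
    exact h
  have hx' : x = zi⁻¹ * t := by
    rw [ht, inv_mul_cancel_left]
  have hcm : (g : GL (Fin 4) F)⁻¹ * zi⁻¹ = zi⁻¹ * (g : GL (Fin 4) F)⁻¹ := by
    rw [← _root_.mul_inv_rev, ← _root_.mul_inv_rev, hzi, scalGL_comm]
  have h2 : (g : GL (Fin 4) F)⁻¹ * (zi⁻¹ * t) * (g : GL (Fin 4) F) =
      zi⁻¹ * ((g : GL (Fin 4) F)⁻¹ * t * (g : GL (Fin 4) F)) := by
    rw [← mul_assoc, hcm, mul_assoc, mul_assoc, mul_assoc]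
  rw [hx', h2, h1]
  apply Subgroup.mul_mem _ _ (Subgroup.pow_mem _ hYN k)
  apply hN z
  rw [hzi, scalGL_inv_val, inv_inv]

end Cfsg.Agent.Lib.Helper54.U64
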